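import Mathlib
import Cfsg.Prelude.Def_ClassicalGeometry
import Cfsg.Agent.ClassicalGeometry.OrthDickson
import Cfsg.Agent.ClassicalGeometry.TwoFamilies

/-!
# The two families of maximal totally singular subspaces and the Dickson sign

For a nondegenerate quadratic form on a `2m`-dimensional space and a totally singular subspace `U` of
dimension `m`, an isometry `g` satisfies: `m - dim (U ∩ g U)` is even iff the Dickson sign of `g` is `1`.
-/

set_option autoImplicit false

namespace Cfsg.Agent.H181.Families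

open QuadraticMap Matrix Module Cfsg.Agent.ClassicalGeometry.Reflection
open Cfsg.Agent.ClassicalGeometry.OrthCharTwo Cfsg.Agent.ClassicalGeometry.OrthDickson

variable {ι : Type} [Fintype ι] [DecidableEq ι] {F : Type*} [Field F]
variable (Q : QuadraticForm F (ι → F))

/-- the image of a subspace under an isometry -/
abbrev img {Q : (ι → F) → F} (g : Cfsg.isometryGroup F Q) (U : Submodule F (ι → F)) :
    Submodule F (ι → F) :=
  U.map (Matrix.mulVecLin ((g : Matrix.GeneralLinearGroup ι F) : Matrix ι ι F))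

theorem mem_img {Q : (ι → F) → F} (g : Cfsg.isometryGroup F Q) (U : Submodule F (ι → F))
    (x : ι → F) : x ∈ img g U ↔ ∃ u ∈ U, act g u = x := Iff.rfl

theorem img_one {Q : (ι → F) → F} (U : Submodule F (ι → F)) :
    img (1 : Cfsg.isometryGroup F Q) U = U := by
  ext x
  rw [mem_img]
  constructor
  · rintro ⟨u, hu, rfl⟩
    rwa [act_one]
  · intro hx
    exact ⟨x, hx, act_one x⟩

theorem img_mul {Q : (ι → F) → F} (g h : Cfsg.isometryGroup F Q) (U : Submodule F (ι → F)) :
    img (g * h) U = img g (img h U) := by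
  ext x
  rw [mem_img, mem_img]
  constructor
  · rintro ⟨u, hu, rfl⟩
    exact ⟨act h u, ⟨u, hu, rfl⟩, (act_mul g h u).symm⟩
  · rintro ⟨_, ⟨u, hu, rfl⟩, rfl⟩
    exact ⟨u, hu, act_mul g h u⟩

theorem act_injective {Q : (ι → F) → F} (g : Cfsg.isometryGroup F Q) :
    Function.Injective (act g) := fun x y h => by
  rw [← act_inv_act g x, h, act_inv_act]

theorem finrank_img {Q : (ι → F) → F} (g : Cfsg.isometryGroup F Q) (U : Submodule F (ι → F)) :
    finrank F (img g U) = finrank F U := by
  have hinj : Function.Injective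
      (Matrix.mulVecLin ((g : Matrix.GeneralLinearGroup ι F) : Matrix ι ι F)) :=
    act_injective g
  exact (Submodule.equivMapOfInjective _ hinj U).finrank_eq.symm

theorem img_inf {Q : (ι → F) → F} (g : Cfsg.isometryGroup F Q) (U W : Submodule F (ι → F)) :
    img g (U ⊓ W) = img g U ⊓ img g W := by
  ext x
  rw [Submodule.mem_inf, mem_img, mem_img, mem_img]
  constructor
  · rintro ⟨u, hu, rfl⟩
    exact ⟨⟨u, hu.1, rfl⟩, u, hu.2, rfl⟩
  · rintro ⟨⟨u, hu, rfl⟩, w, hw, hwu⟩
    have : w = u := act_injective g hwu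
    subst this
    exact ⟨w, ⟨hu, hw⟩, rfl⟩

/-- maximal totally singular subspaces of a `2m`-dimensional space -/
def IsMaxSing (m : ℕ) (U : Submodule F (ι → F)) : Prop :=
  finrank F U = m ∧ ∀ u ∈ U, Q u = 0

variable {Q}

theorem IsMaxSing.img {m : ℕ} {U : Submodule F (ι → F)} (hU : IsMaxSing Q m U)
    (g : Cfsg.isometryGroup F (⇑Q)) : IsMaxSing Q m (img g U) := by
  refine ⟨(finrank_img g U).trans hU.1, ?_⟩
  rintro _ ⟨u, hu, rfl⟩
  exact (Q_act g u).trans (hU.2 u hu)

theorem IsMaxSing.polar_eq_zero {m : ℕ} {U : Submodule F (ι → F)} (hU : IsMaxSing Q m U)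
    {x y : ι → F} (hx : x ∈ U) (hy : y ∈ U) : polar (⇑Q) x y = 0 := by
  rw [polar, hU.2 _ (U.add_mem hx hy), hU.2 _ hx, hU.2 _ hy]
  simp

/-- a maximal totally singular subspace is its own orthogonal space -/
theorem IsMaxSing.mem_of_polar (hQ : (polarBilin Q).Nondegenerate) {m : ℕ}
    (hι : Fintype.card ι = 2 * m) {U : Submodule F (ι → F)} (hU : IsMaxSing Q m U) {x : ι → F}
    (hx : ∀ u ∈ U, polar (⇑Q) x u = 0) : x ∈ U := by
  have h1 : U ≤ LinearMap.BilinForm.orthogonal (polarBilin Q) U := by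
    intro y hy z hz
    exact hU.polar_eq_zero hz hy
  have h2 : finrank F (LinearMap.BilinForm.orthogonal (polarBilin Q) U) = finrank F U := by
    rw [LinearMap.BilinForm.finrank_orthogonal hQ, hU.1, finrank_fintype_fun_eq_card, hι]
    omega
  have h3 : U = LinearMap.BilinForm.orthogonal (polarBilin Q) U := Submodule.eq_of_le_of_finrank_eq h1 h2.symm
  rw [h3]
  intro z hz
  have := hx z hz
  rw [polar_comm] at this
  exact this

/-- a reflection moves a maximal totally singular subspace to a subspace meeting it in a hyperplane -/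
theorem finrank_inf_img_refl (hQ : (polarBilin Q).Nondegenerate) {m : ℕ}
    (hι : Fintype.card ι = 2 * m) {U : Submodule F (ι → F)} (hU : IsMaxSing Q m U) (v : ι → F)
    (hv : Q v ≠ 0) : finrank F ↥(U ⊓ Families.img (reflIso Q v hv) U) + 1 = m := by
  have hact : ∀ x, act (reflIso Q v hv) x = x - ((Q v)⁻¹ * polar (⇑Q) v x) • v := fun x => by
    rw [act_def, coe_reflIso, reflectionMatrix_mulVec]
  let L : U →ₗ[F] F := (polarBilin Q v).comp U.subtype
  have hL : (LinearMap.ker L).map U.subtype = U ⊓ Families.img (reflIso Q v hv) U := by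
    ext x
    rw [Submodule.mem_map, Submodule.mem_inf, mem_img]
    constructor
    · rintro ⟨u, hu, rfl⟩
      have hu' : polar (⇑Q) v (u : ι → F) = 0 := hu
      refine ⟨u.2, u, u.2, ?_⟩
      rw [hact, hu']
      simp
    · rintro ⟨hx, u, hu, hux⟩
      rw [hact] at hux
      set c := (Q v)⁻¹ * polar (⇑Q) v u with hc
      have h1 : c • v = u - x := by rw [← hux]; abel
      have h2 : Q (c • v) = 0 := by
        rw [h1]; exact hU.2 _ (U.sub_mem hu hx)
      rw [QuadraticMap.map_smul, smul_eq_mul] at h2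
      have hc0 : c = 0 := by
        rcases mul_eq_zero.1 h2 with h3 | h3
        · exact mul_self_eq_zero.1 h3
        · exact absurd h3 hv
      have h4 : polar (⇑Q) v u = 0 := by
        rcases mul_eq_zero.1 (hc.symm.trans hc0) with h5 | h5
        · exact absurd h5 (inv_ne_zero hv)
        · exact h5
      have h5 : x = u := by rw [← hux, hc0, zero_smul, sub_zero]
      subst h5
      exact ⟨⟨x, hx⟩, h4, rfl⟩
  have h1 : finrank F ↥(U ⊓ Families.img (reflIso Q v hv) U) = finrank F (LinearMap.ker L) := by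
    rw [← hL]
    exact Submodule.finrank_map_subtype_eq _ _
  rw [h1]
  have h2 := LinearMap.finrank_range_add_finrank_ker L
  have h3 : finrank F (LinearMap.range L) ≤ 1 := by
    refine (Submodule.finrank_le _).trans ?_
    rw [finrank_self]
  have h4 : finrank F (LinearMap.range L) ≠ 0 := by
    intro h0
    have h5 : LinearMap.range L = ⊥ := Submodule.finrank_eq_zero.1 h0
    have h6 : ∀ u ∈ U, polar (⇑Q) v u = 0 := by
      intro u hu
      have : L ⟨u, hu⟩ ∈ LinearMap.range L := ⟨_, rfl⟩
      rw [h5, Submodule.mem_bot] at this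
      exact this
    exact hv (hU.2 _ (hU.mem_of_polar hQ hι h6))
  have h5 := hU.1
  omega

/-- parity in three maximal totally singular subspaces -/
theorem IsMaxSing.even_three (hQ : (polarBilin Q).Nondegenerate) {m : ℕ}
    (hι : Fintype.card ι = 2 * m) {U W X : Submodule F (ι → F)} (hU : IsMaxSing Q m U)
    (hW : IsMaxSing Q m W) (hX : IsMaxSing Q m X) :
    Even ((m - finrank F ↥(U ⊓ W)) + (m - finrank F ↥(W ⊓ X)) + (m - finrank F ↥(U ⊓ X))) := by
  have h := Cfsg.Agent.ClassicalGeometry.TwoFamilies.even_intersections (polarBilin Q) (⇑Q)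
    (fun u w => map_add' Q u w) hQ (polarBilin_isRefl Q) m
    (by rw [finrank_fintype_fun_eq_card, hι]) U W X hU.1 hW.1 hX.1 hU.2 hW.2 hX.2
  have h1 : finrank F ↥(U ⊓ W) ≤ m := (Submodule.finrank_mono inf_le_left).trans hU.1.le
  have h2 : finrank F ↥(W ⊓ X) ≤ m := (Submodule.finrank_mono inf_le_left).trans hW.1.le
  have h3 : finrank F ↥(U ⊓ X) ≤ m := (Submodule.finrank_mono inf_le_left).trans hU.1.le
  rw [Nat.even_iff] at h ⊢
  omega

/-- **Dickson sign and the two families**: `m - dim (U ∩ g U)` is even iff the Dickson sign of `g` is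
`1`. -/
theorem even_iff_dsign (hQ : (polarBilin Q).Nondegenerate) {m : ℕ} (hι : Fintype.card ι = 2 * m)
    (h : (∃ θ : F, θ ≠ 0 ∧ θ ≠ 1) ∨ Fintype.card ι ≠ 4) (g : Cfsg.isometryGroup F (⇑Q))
    {U : Submodule F (ι → F)} (hU : IsMaxSing Q m U) :
    Even (m - finrank F ↥(U ⊓ img g U)) ↔ dsign Q g = 1 := by
  revert g
  refine isometry_induction Q hQ h _ ?_ ?_
  · rw [img_one, inf_idem, hU.1, dsign_one]
    simp
  · intro v hv g ih
    rw [dsign_refl_mul Q hQ, img_mul]
    -- compare `U`, `r U`, `r g U`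
    have h3 := hU.even_three hQ hι (hU.img (reflIso Q v hv)) ((hU.img g).img (reflIso Q v hv))
    have h4 := finrank_inf_img_refl hQ hι hU v hv
    rw [← img_inf, finrank_img] at h3
    have h5 : finrank F ↥(U ⊓ Families.img (reflIso Q v hv) U) = m - 1 := by omega
    rw [h5] at h3
    have h6 : m - (m - 1) = 1 := by omega
    rw [h6] at h3
    rcases Int.units_eq_one_or (dsign Q g) with h7 | h7
    · rw [h7] at ih ⊢
      have h8 : Even (m - finrank F ↥(U ⊓ Families.img g U)) := ih.2 rfl
      have h9 : ¬ Even (m - finrank F ↥(U ⊓ Families.img (reflIso Q v hv) (Families.img g U))) := by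
        rw [Nat.even_iff] at h3 h8 ⊢
        omega
      simp only [h9, false_iff]
      decide
    · rw [h7] at ih ⊢
      have h8 : ¬ Even (m - finrank F ↥(U ⊓ Families.img g U)) := fun h0 =>
        absurd (ih.1 h0) (by decide)
      have h9 : Even (m - finrank F ↥(U ⊓ Families.img (reflIso Q v hv) (Families.img g U))) := by
        rw [Nat.even_iff] at h3 h8 ⊢
        omega
      simp only [h9, true_iff]
      decide

/-- In odd characteristic: `m - dim (U ∩ g U)` is even iff `det g = 1`. -/
theorem even_iff_det (h2 : (2 : F) ≠ 0) (hQ : (polarBilin Q).Nondegenerate) {m : ℕ}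
    (hι : Fintype.card ι = 2 * m) (g : Cfsg.isometryGroup F (⇑Q))
    {U : Submodule F (ι → F)} (hU : IsMaxSing Q m U) :
    Even (m - finrank F ↥(U ⊓ img g U)) ↔
      ((g : Matrix.GeneralLinearGroup ι F) : Matrix ι ι F).det = 1 := by
  have hne : (-1 : F) ≠ 1 := by
    intro h
    apply h2
    linear_combination -h
  have hθ : (∃ θ : F, θ ≠ 0 ∧ θ ≠ 1) ∨ Fintype.card ι ≠ 4 :=
    Or.inl ⟨-1, neg_ne_zero.2 one_ne_zero, hne⟩
  rw [even_iff_dsign hQ hι hθ g hU]
  have key : (((g : Matrix.GeneralLinearGroup ι F) : Matrix ι ι F).det = 1 ∧ dsign Q g = 1) ∨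
      (((g : Matrix.GeneralLinearGroup ι F) : Matrix ι ι F).det = -1 ∧ dsign Q g = -1) := by
    revert g
    refine isometry_induction Q hQ hθ _ ?_ ?_
    · left
      exact ⟨by simp, dsign_one Q⟩
    · intro v hv g ih
      rw [dsign_refl_mul Q hQ, Subgroup.coe_mul, Units.val_mul, Matrix.det_mul, det_reflIso,
        neg_one_mul]
      rcases ih with ⟨h1, h3⟩ | ⟨h1, h3⟩
      · right
        rw [h1, h3]
        exact ⟨rfl, rfl⟩
      · left
        rw [h1, h3, neg_neg, neg_neg]
        exact ⟨rfl, rfl⟩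
  rcases key with ⟨h1, h3⟩ | ⟨h1, h3⟩
  · simp [h1, h3]
  · rw [h1, h3]
    constructor
    · intro h0
      exact absurd h0 (by decide)
    · intro h0
      exact absurd h0 hne

end Cfsg.Agent.H181.Families
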